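import Mathlib
import Cfsg.Agent.Spor.Comp.Iso2

/-!
Transport of facts from a group to its image in a faithful permutation representation.
-/

set_option autoImplicit false

namespace Cfsg.Agent.Spor

open MulAction

variable {G α : Type*} [Group G] {φ : G →* Equiv.Perm α}

theorem range_pretransitive {x : α} (h : ∀ y, ∃ g, φ g x = y) : IsPretransitive φ.range α :=
  ⟨fun a b => by
    obtain ⟨g, rfl⟩ := h a
    obtain ⟨g', rfl⟩ := h b
    exact ⟨⟨φ (g' * g⁻¹), _, rfl⟩, by simp [Subgroup.smul_def]⟩⟩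

theorem range_stabilizer_equiv (hφ : Function.Injective φ) {x : α} {K : Subgroup G}
    (hK : ∀ g, g ∈ K ↔ φ g x = x) : Nonempty (K ≃* stabilizer φ.range x) := by
  refine ⟨((MonoidHom.ofInjective hφ).subgroupMap K).trans (MulEquiv.subgroupCongr ?_)⟩
  ext y
  obtain ⟨g, rfl⟩ := (MonoidHom.ofInjective hφ).surjective y
  exact (Subgroup.mem_map_iff_mem (MonoidHom.ofInjective hφ).injective).trans (hK g)

/-- A subgroup of given index and isomorphism type, along an isomorphism. -/
theorem exists_subgroup_of_equiv {K K' Q : Type*} [Group K] [Group K'] [Group Q] (ψ : K ≃* K') {N : Subgroup K}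
    {k : ℕ} (h1 : N.index = k) (h2 : Nonempty (N ≃* Q)) : ∃ N' : Subgroup K', N'.index = k ∧ Nonempty (N' ≃* Q) :=
  ⟨N.map ψ.toMonoidHom, by rw [← h1]; exact Subgroup.index_map_of_bijective ψ.bijective N,
    ⟨(ψ.subgroupMap N).symm.trans h2.some⟩⟩

/-- A simple subgroup of given order, along an injective homomorphism. -/
theorem exists_simple_of_injective {K K' : Type*} [Group K] [Group K'] (ψ : K →* K') (hψ : Function.Injective ψ)
    (N : Subgroup K) {c : ℕ} (h : IsSimpleGroup N ∧ Nat.card N = c) :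
    ∃ N' : Subgroup K', IsSimpleGroup N' ∧ Nat.card N' = c :=
  have := h.1
  ⟨N.map ψ, (N.equivMapOfInjective ψ hψ).symm.isSimpleGroup,
    (Nat.card_congr (N.equivMapOfInjective ψ hψ).toEquiv).symm.trans h.2⟩

theorem simple_range {K K' : Type*} [Group K] [Group K'] (ψ : K →* K') (hψ : Function.Injective ψ) {c : ℕ}
    (h : IsSimpleGroup K ∧ Nat.card K = c) : IsSimpleGroup ψ.range ∧ Nat.card ψ.range = c :=
  have := h.1
  ⟨(MonoidHom.ofInjective hψ).symm.isSimpleGroup, (Nat.card_congr (MonoidHom.ofInjective hψ).toEquiv).symm.trans h.2⟩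

end Cfsg.Agent.Spor
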